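import Cfsg.Agent.ThreeInvolutions.Form
import Cfsg.Agent.CoprimeAction.Frattini

/-!
The automorphism group of a two-group with three involutions is solvable.
-/

set_option autoImplicit false

namespace CfsgLib.ThreeInvolutions

universe u

/-- Embed an elementary group of order at most four. -/
theorem exists_embedding {E : Type*} [Group E] [Finite E] (h2 : ∀ x : E, x * x = 1) (hc : Nat.card E ≤ 4) :
    ∃ f : E →* Multiplicative A2, Function.Injective f := by
  classical
  haveI := Fintype.ofFinite E
  have hinv : ∀ x : E, x⁻¹ = x := fun x => inv_eq_of_mul_eq_one_right (h2 x)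
  have hcomm : ∀ x y : E, x * y = y * x := fun x y => by
    rw [← hinv (x * y), mul_inv_rev, hinv, hinv]
  by_cases h1 : ∀ x : E, x = 1
  · exact ⟨1, fun x y _ => (h1 x).trans (h1 y).symm⟩
  push Not at h1
  obtain ⟨a, ha⟩ := h1
  have hsq : ∀ x : E, x ^ 2 = 1 := fun x => by rw [pow_two]; exact h2 x
  by_cases hb : ∀ x : E, x = 1 ∨ x = a
  · refine ⟨{ toFun := fun x => if x = 1 then 1 else Multiplicative.ofAdd ((1, 0) : A2)
              map_one' := if_pos rfl
              map_mul' := fun x y => ?_ }, fun x y h => ?_⟩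
    · rcases hb x with rfl | rfl <;> rcases hb y with rfl | rfl <;> simp [ha, h2] <;> decide
    · rcases hb x with rfl | rfl <;> rcases hb y with rfl | rfl <;>
        first
          | rfl
          | (simp [ha] at h; done)
          | (exfalso; simp [ha] at h; revert h; decide)
  push Not at hb
  obtain ⟨c, hc1, hca⟩ := hb
  have hac1 : a * c ≠ 1 := fun h => hca (mul_left_cancel (h.trans (h2 a).symm))
  have hall : ∀ x : E, x = 1 ∨ x = a ∨ x = c ∨ x = a * c := by
    intro x
    by_contra hx
    push Not at hx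
    obtain ⟨x1, x2, x3, x4⟩ := hx
    have h5 : ({1, a, c, a * c, x} : Finset E).card = 5 := by
      have e1 : a ≠ a * c := fun h => hc1 (left_eq_mul.1 h)
      have e2 : c ≠ a * c := fun h => ha (right_eq_mul.1 h)
      simp [Finset.card_insert_of_notMem, Ne.symm ha, Ne.symm hc1, Ne.symm hac1, Ne.symm x1, Ne.symm hca,
        e1, Ne.symm x2, e2, Ne.symm x3, Ne.symm x4]
    have := Finset.card_le_univ ({1, a, c, a * c, x} : Finset E)
    rw [h5, ← Nat.card_eq_fintype_card] at this
    omega
  refine ⟨{ toFun := fun x => Multiplicative.ofAdd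
              ((if x = a ∨ x = a * c then 1 else 0, if x = c ∨ x = a * c then 1 else 0) : A2)
            map_one' := by simp [Ne.symm ha, Ne.symm hc1, Ne.symm hac1]
            map_mul' := fun x y => ?_ }, fun x y h => ?_⟩
  · have e1 : a * c ≠ a := fun h => hc1 (mul_eq_left.1 h)
    have e2 : a * c ≠ c := fun h => ha (mul_eq_right.1 h)
    have k1 : c * a = a * c := hcomm c a
    have k2 : a * (a * c) = c := by rw [← mul_assoc, h2, one_mul]
    have k3 : (a * c) * a = c := by rw [hcomm, k2]
    have k4 : c * (a * c) = a := by rw [hcomm, mul_assoc, h2, mul_one]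
    have k5 : (a * c) * c = a := by rw [mul_assoc, h2, mul_one]
    rcases hall x with rfl | rfl | rfl | rfl <;> rcases hall y with rfl | rfl | rfl | rfl <;>
      simp only [one_mul, mul_one, h2, k1, k2, k3, k4, k5] <;>
      simp [ha, Ne.symm ha, hc1, Ne.symm hc1, hca, Ne.symm hca, hac1, Ne.symm hac1, e1, Ne.symm e1, e2,
        Ne.symm e2] <;> decide
  · have e1 : a * c ≠ a := fun h => hc1 (mul_eq_left.1 h)
    have e2 : a * c ≠ c := fun h => ha (mul_eq_right.1 h)
    rcases hall x with rfl | rfl | rfl | rfl <;> rcases hall y with rfl | rfl | rfl | rfl <;>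
      simp [ha, Ne.symm ha, hc1, Ne.symm hc1, hca, Ne.symm hca, hac1, Ne.symm hac1, e1, Ne.symm e1, e2,
        Ne.symm e2] at h ⊢ <;> revert h <;> decide

/-- The step: all invariant proper subgroups are fixed. -/
theorem step {R : Type*} [Group R] (hperf : commutator R = ⊤) {X : Type u} [Group X] [Finite X]
    (hX : IsPGroup 2 X) (φ : R →* MulAut X) (hfix : ∀ x : X, x * x = 1 → ∀ r, φ r x = x)
    (hfour : Nat.card {x : X // x * x = 1} ≤ 4)
    (hmin : ∀ U : Subgroup X, U ≠ ⊤ → (∀ r, ∀ u ∈ U, φ r u ∈ U) → ∀ r, ∀ u ∈ U, φ r u = u) : φ = 1 := by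
  classical
  haveI : Fact (Nat.Prime 2) := ⟨Nat.prime_two⟩
  by_contra hne
  let C : Subgroup X :=
    { carrier := {x | ∀ r, φ r x = x}
      one_mem' := fun r => map_one _
      mul_mem' := fun {a b} ha hb r => by rw [map_mul, ha, hb]
      inv_mem' := fun {a} ha r => by rw [map_inv, ha] }
  have hCtop : C ≠ ⊤ := fun h => hne (MonoidHom.ext fun r => MulEquiv.ext fun x =>
    (show x ∈ C from h ▸ Subgroup.mem_top x) r)
  have hinC : ∀ U : Subgroup X, U ≠ ⊤ → (∀ r, ∀ u ∈ U, φ r u ∈ U) → U ≤ C :=
    fun U h1 h2 u hu r => hmin U h1 h2 r u hu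
  have hFC : frattini X ≤ C := by
    refine hinC _ (fun h => ?_) fun r u hu => ?_
    · rcases eq_top_or_exists_le_coatom (⊥ : Subgroup X) with h' | ⟨M, hM, -⟩
      · exact hCtop (le_antisymm le_top (h' ▸ bot_le))
      · exact hM.1 (le_antisymm le_top (h ▸ frattini_le_coatom hM))
    · have := Subgroup.characteristic_iff_le_comap.1 frattini_characteristic (φ r) hu
      exact this
  have hsqC : ∀ x : X, x * x ∈ C := fun x => by
    rw [← pow_two]; exact hFC (CfsgLib.CoprimeAction.pow_mem_frattini hX x)
  have hkC : ∀ x y : X, x⁻¹ * y * x * y⁻¹ ∈ C := fun x y => by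
    refine hFC (CfsgLib.CoprimeAction.commutator_le_frattini' hX ?_)
    have h := Subgroup.commutator_mem_commutator (Subgroup.mem_top x⁻¹) (Subgroup.mem_top y)
    rw [commutatorElement_def, inv_inv] at h
    exact h
  have hgen : ∀ T : Subgroup X, (∀ r x, x⁻¹ * φ r x ∈ T) → T = ⊤ := by
    intro T hT
    set D := Subgroup.closure {y : X | ∃ r x, y = x⁻¹ * φ r x}
    have hDT : D ≤ T := (Subgroup.closure_le _).2 (by rintro y ⟨r, x, rfl⟩; exact hT r x)
    by_contra hne'
    have hDtop : D ≠ ⊤ := fun h => hne' (top_le_iff.1 (h ▸ hDT))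
    have hD : ∀ r x, x⁻¹ * φ r x ∈ C := fun r x => by
      refine hinC D hDtop (fun s u hu => ?_) (Subgroup.subset_closure ⟨r, x, rfl⟩)
      induction hu using Subgroup.closure_induction with
      | mem u hu =>
        obtain ⟨r, x, rfl⟩ := hu
        refine Subgroup.subset_closure ⟨s * r * s⁻¹, φ s x, ?_⟩
        rw [map_mul, map_inv]
        simp [MulAut.mul_apply]
      | one => rw [map_one]; exact one_mem _
      | mul a b _ _ ha hb => rw [map_mul]; exact mul_mem ha hb
      | inv a _ ha => rw [map_inv]; exact inv_mem ha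
    haveI : Group.IsSolvable X := by haveI := hX.isNilpotent; infer_instance
    refine hCtop ((Subgroup.eq_top_iff' C).2 fun x r => ?_)
    let f : R →* X :=
      { toFun := fun r => x⁻¹ * φ r x
        map_one' := by simp
        map_mul' := fun r s => by
          have h := hD s x r
          rw [map_mul, map_inv] at h
          calc x⁻¹ * φ (r * s) x = x⁻¹ * φ r (φ s x) := by rw [map_mul]; rfl
            _ = x⁻¹ * φ r x * ((φ r x)⁻¹ * φ r (φ s x)) := by group
            _ = _ := by rw [h] }
    have h := DFunLike.congr_fun (eq_top_of_perfect_hom hperf f) r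
    exact (inv_mul_eq_one.1 h).symm
  have hcent : ∀ c ∈ C, ∀ x : X, c * x = x * c := by
    intro c hc
    let T : Subgroup X := Subgroup.centralizer {c}
    have hT := hgen T fun r x => ?_
    · intro x
      exact (Subgroup.mem_centralizer_singleton_iff.1 (show x ∈ T from hT ▸ Subgroup.mem_top x)).symm
    · rw [Subgroup.mem_centralizer_singleton_iff]
      have h := hkC c x r
      rw [map_mul, map_mul, map_mul, map_inv, map_inv, hc r] at h
      generalize φ r x = y at h
      have h2 : y * c * y⁻¹ = x * c * x⁻¹ := by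
        have := congrArg (fun z => c * z) h
        simpa [mul_assoc] using this
      calc x⁻¹ * y * c = x⁻¹ * (y * c * y⁻¹) * y := by group
        _ = x⁻¹ * (x * c * x⁻¹) * y := by rw [h2]
        _ = c * (x⁻¹ * y) := by group
  set k : X → X → X := fun x y => x⁻¹ * y * x * y⁻¹ with hk
  have hkmul : ∀ x y z, k x (y * z) = k x y * k x z := fun x y z => by
    calc k x (y * z) = x⁻¹ * y * x * (k x z) * y⁻¹ := by simp only [hk]; group
      _ = x⁻¹ * y * x * ((k x z) * y⁻¹) := by group
      _ = x⁻¹ * y * x * (y⁻¹ * k x z) := by rw [hcent _ (hkC x z)]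
      _ = k x y * k x z := by simp only [hk]; group
  have hkmul' : ∀ x x' y, k (x * x') y = k x y * k x' y := fun x x' y => by
    calc k (x * x') y = x'⁻¹ * (k x y) * (y * x' * y⁻¹) := by simp only [hk]; group
      _ = k x y * x'⁻¹ * (y * x' * y⁻¹) := by rw [hcent _ (hkC x y)]
      _ = k x y * k x' y := by simp only [hk]; group
  have hk2 : ∀ x y, k x y * k x y = 1 := fun x y => by
    rw [← hkmul]
    show x⁻¹ * (y * y) * x * (y * y)⁻¹ = 1
    rw [mul_assoc x⁻¹, hcent _ (hsqC y) x]; group
  have hsqmul : ∀ x y : X, x * y * (x * y) = x * x * (y * y) * k x y := fun x y => by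
    calc x * y * (x * y) = x * x * (k x y * (y * y)) := by simp only [hk]; group
      _ = x * x * (y * y) * k x y := by rw [hcent _ (hkC x y)]; exact (mul_assoc _ _ _).symm
  let F4 : X →* X :=
    { toFun := fun x => x * x * (x * x)
      map_one' := by simp
      map_mul' := fun x y => by
        rw [hsqmul x y]
        set a := x * x; set b := y * y; set c := k x y
        calc a * b * c * (a * b * c) = a * b * (c * (a * b)) * c := by group
          _ = a * b * ((a * b) * c) * c := by rw [hcent c (hkC x y)]
          _ = a * b * (a * b) * (c * c) := by group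
          _ = a * (b * a) * b := by rw [hk2]; group
          _ = a * (a * b) * b := by rw [hcent b (hsqC y) a]
          _ = a * a * (b * b) := by group }
  have hF4 : ∀ x : X, x * x * (x * x) = 1 := by
    have hT := hgen F4.ker fun r x => ?_
    · exact fun x => MonoidHom.mem_ker.1 (show x ∈ F4.ker from hT ▸ Subgroup.mem_top x)
    · rw [MonoidHom.mem_ker, map_mul, map_inv, inv_mul_eq_one]
      show x * x * (x * x) = φ r x * φ r x * (φ r x * φ r x)
      rw [← map_mul, ← map_mul]
      exact ((mul_mem (hsqC x) (hsqC x) : x * x * (x * x) ∈ C) r).symm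
  let S : Subgroup X :=
    { carrier := {x | x ∈ C ∧ x * x = 1}
      one_mem' := ⟨one_mem _, one_mul 1⟩
      mul_mem' := fun {a b} ha hb => ⟨mul_mem ha.1 hb.1, by
        rw [mul_assoc, ← mul_assoc b, hcent b hb.1 a, mul_assoc a, hb.2, mul_one, ha.2]⟩
      inv_mem' := fun {a} ha => ⟨inv_mem ha.1, by rw [← mul_inv_rev, ha.2, inv_one]⟩ }
  have hSmem : ∀ x : X, x * x ∈ S := fun x => ⟨hsqC x, hF4 x⟩
  let M : Subgroup S :=
    { carrier := {s | ∃ m ∈ C, (s : X) = m * m}
      one_mem' := ⟨1, one_mem _, by simp⟩
      mul_mem' := by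
        rintro a b ⟨m, hm, e⟩ ⟨m', hm', e'⟩
        exact ⟨m * m', mul_mem hm hm', by
          rw [Subgroup.coe_mul, e, e', mul_assoc m m' (m * m'), ← mul_assoc m' m m', hcent m' hm' m]; group⟩
      inv_mem' := by
        rintro a ⟨m, hm, e⟩
        exact ⟨m⁻¹, inv_mem hm, by rw [Subgroup.coe_inv, e, mul_inv_rev]⟩ }
  haveI : M.Normal := ⟨fun n hn g => by
    have : g * n * g⁻¹ = n := Subtype.ext (by
      show (g : X) * n * (g : X)⁻¹ = n
      rw [hcent g g.2.1 n, mul_inv_cancel_right])
    rwa [this]⟩
  obtain ⟨e, he⟩ := exists_embedding (E := S ⧸ M)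
    (fun x => by
      obtain ⟨s, rfl⟩ := QuotientGroup.mk_surjective x
      rw [← QuotientGroup.mk_mul, show s * s = 1 from Subtype.ext s.2.2]; rfl)
    (le_trans (Nat.card_le_card_of_surjective _ QuotientGroup.mk_surjective)
      (le_trans (Nat.card_le_card_of_injective (fun s : S => (⟨s.1, s.2.2⟩ : {x : X // x * x = 1}))
        (fun a b h => Subtype.ext (congrArg Subtype.val h :))) hfour))
  let cl : S → A2 := fun s => Multiplicative.toAdd (e (QuotientGroup.mk s))
  have clmul : ∀ s t : S, cl (s * t) = cl s + cl t := fun s t => by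
    simp only [cl, QuotientGroup.mk_mul, map_mul, toAdd_mul]
  have clone : cl 1 = 0 := by simp only [cl, QuotientGroup.mk_one, map_one, toAdd_one]
  have clzero : ∀ s : S, cl s = 0 → ∃ m ∈ C, (s : X) = m * m := fun s h => by
    have : e (QuotientGroup.mk s) = e 1 := by rw [map_one]; exact h
    exact (QuotientGroup.eq_one_iff s).1 (he this)
  haveI hCn : C.Normal := ⟨fun c hc x => by rw [← hcent c hc x, mul_inv_cancel_right]; exact hc⟩
  let sq : X → A2 := fun x => cl ⟨x * x, hSmem x⟩
  let kc : X → X → A2 := fun x y => cl ⟨k x y, hkC x y, hk2 x y⟩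
  have hsq' : ∀ x y, sq (x * y) = sq x + sq y + kc x y := fun x y => by
    show cl _ = cl _ + cl _ + cl _
    rw [← clmul, ← clmul]
    exact congrArg cl (Subtype.ext (hsqmul x y))
  have hsqc : ∀ x, ∀ c ∈ C, sq (x * c) = sq x := fun x c hc => by
    rw [hsq']
    have h1 : sq c = 0 := by
      have hm : (⟨c * c, hSmem c⟩ : S) ∈ M := ⟨c, hc, rfl⟩
      show Multiplicative.toAdd (e _) = 0
      rw [(QuotientGroup.eq_one_iff _).2 hm, map_one, toAdd_one]
    have h2 : kc x c = 0 := by
      show cl _ = 0
      rw [← clone]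
      refine congrArg cl (Subtype.ext ?_)
      show x⁻¹ * c * x * c⁻¹ = 1
      rw [mul_assoc x⁻¹, hcent c hc x]; group
    rw [h1, h2, add_zero, add_zero]
  let q : X ⧸ C → A2 := fun u => sq u.out
  have hqmk : ∀ x : X, q (QuotientGroup.mk x) = sq x := fun x => by
    obtain ⟨c, hc⟩ := QuotientGroup.mk_out_eq_mul C x
    show sq _ = _
    rw [hc, hsqc _ _ c.2]
  let b : X ⧸ C → X ⧸ C → A2 := fun u w => q (u * w) - q u - q w
  have hbmk : ∀ x y : X, b (QuotientGroup.mk x) (QuotientGroup.mk y) = kc x y := fun x y => by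
    show q _ - q _ - q _ = _
    rw [← QuotientGroup.mk_mul, hqmk, hqmk, hqmk, hsq']; abel
  have hcomap : ∀ r, C.map (φ r : X →* X) = C := fun r => by
    ext x
    constructor
    · rintro ⟨c, hc, rfl⟩
      show φ r c ∈ C
      rw [hc r]; exact hc
    · exact fun hx => ⟨x, hx, hx r⟩
  let ρ : R →* MulAut (X ⧸ C) :=
    { toFun := fun r => QuotientGroup.congr C C (φ r) (hcomap r)
      map_one' := MulEquiv.ext fun u => by
        obtain ⟨x, rfl⟩ := QuotientGroup.mk_surjective u
        rw [QuotientGroup.congr_mk, map_one]; rfl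
      map_mul' := fun r s => MulEquiv.ext fun u => by
        obtain ⟨x, rfl⟩ := QuotientGroup.mk_surjective u
        rw [MulAut.mul_apply, QuotientGroup.congr_mk, QuotientGroup.congr_mk, QuotientGroup.congr_mk, map_mul]
        rfl }
  obtain ⟨n, hn⟩ := IsPGroup.iff_card.1 (hX.to_quotient C)
  have hρ : ρ = 1 := by
    refine core hperf n hn ρ (fun U hU => ?_) (fun u w => ?_) q b (fun u w => ?_) (fun u w w' => ?_)
      (fun r u => ?_) (fun u hu => ?_)
    · set U' := U.comap (QuotientGroup.mk' C)
      by_cases hU' : U' = ⊤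
      · refine Or.inr ((Subgroup.eq_top_iff' U).2 fun u => ?_)
        obtain ⟨x, rfl⟩ := QuotientGroup.mk_surjective u
        exact (show x ∈ U' from hU' ▸ Subgroup.mem_top x)
      · refine Or.inl ((Subgroup.eq_bot_iff_forall U).2 fun u hu => ?_)
        obtain ⟨x, rfl⟩ := QuotientGroup.mk_surjective u
        refine (QuotientGroup.eq_one_iff x).2 (hinC U' hU' (fun r y hy => ?_) hu)
        show QuotientGroup.mk (φ r y) ∈ U
        rw [← QuotientGroup.congr_mk C C (φ r) (hcomap r)]
        exact hU r _ hy
    · obtain ⟨x, rfl⟩ := QuotientGroup.mk_surjective u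
      obtain ⟨y, rfl⟩ := QuotientGroup.mk_surjective w
      rw [← QuotientGroup.mk_mul, ← QuotientGroup.mk_mul, QuotientGroup.eq]
      have h := hkC x⁻¹ y⁻¹
      have e' : (x * y)⁻¹ * (y * x) = y⁻¹ * (x⁻¹ * y * x * y⁻¹) * y := by group
      rw [e']
      have hk' := hkC x y
      rw [mul_assoc, hcent _ hk' y, ← mul_assoc, inv_mul_cancel, one_mul]
      exact hk'
    · show _ = _ + _ + (q (u * w) - q u - q w)
      abel
    · obtain ⟨x, rfl⟩ := QuotientGroup.mk_surjective u
      obtain ⟨y, rfl⟩ := QuotientGroup.mk_surjective w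
      obtain ⟨z, rfl⟩ := QuotientGroup.mk_surjective w'
      rw [← QuotientGroup.mk_mul, hbmk, hbmk, hbmk]
      show cl _ = cl _ + cl _
      rw [← clmul]
      exact congrArg cl (Subtype.ext (hkmul x y z))
    · obtain ⟨x, rfl⟩ := QuotientGroup.mk_surjective u
      show q (QuotientGroup.congr C C (φ r) (hcomap r) _) = _
      rw [QuotientGroup.congr_mk, hqmk, hqmk]
      refine congrArg cl (Subtype.ext ?_)
      show φ r x * φ r x = x * x
      rw [← map_mul]
      exact hsqC x r
    · obtain ⟨x, rfl⟩ := QuotientGroup.mk_surjective u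
      rw [hqmk] at hu
      obtain ⟨m, hm, hxm⟩ := clzero _ hu
      refine (QuotientGroup.eq_one_iff x).2 ?_
      have h1 : (x * m⁻¹) * (x * m⁻¹) = 1 := by
        calc (x * m⁻¹) * (x * m⁻¹) = x * (m⁻¹ * x) * m⁻¹ := by group
          _ = x * (x * m⁻¹) * m⁻¹ := by rw [hcent _ (inv_mem hm) x]
          _ = (x * x) * (m * m)⁻¹ := by group
          _ = 1 := by rw [show x * x = m * m from hxm]; group
      have h2 : x * m⁻¹ ∈ C := hfix _ h1
      simpa using mul_mem h2 hm
  refine hCtop (hgen C fun r x => ?_)
  rw [← QuotientGroup.eq]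
  have h : ρ r (QuotientGroup.mk x) = QuotientGroup.mk x := by rw [hρ]; rfl
  exact h.symm.trans (QuotientGroup.congr_mk C C (φ r) (hcomap r) x)

/-- Fixing the involutions of a two-group with at most three of them, a perfect group acts trivially. -/
theorem trivial_action {R : Type*} [Group R] (hperf : commutator R = ⊤) :
    ∀ (n : ℕ) (X : Type u) [Group X] [Finite X], Nat.card X = n → IsPGroup 2 X → ∀ φ : R →* MulAut X,
      (∀ x : X, x * x = 1 → ∀ r, φ r x = x) → Nat.card {x : X // x * x = 1} ≤ 4 → φ = 1 := by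
  intro n
  induction n using Nat.strong_induction_on with
  | _ n ih =>
    intro X _ _ hn hX φ hfix hfour
    refine step hperf hX φ hfix hfour fun U hU hinv r u hu => ?_
    let ψ : R →* MulAut U :=
      { toFun := fun r =>
          { toFun := fun u => ⟨φ r u, hinv r u u.2⟩
            invFun := fun u => ⟨φ r⁻¹ u, hinv r⁻¹ u u.2⟩
            left_inv := fun u => Subtype.ext (by simp)
            right_inv := fun u => Subtype.ext (by simp)
            map_mul' := fun a b => Subtype.ext (map_mul _ _ _) }
        map_one' := MulEquiv.ext fun u => Subtype.ext (by simp)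
        map_mul' := fun a b => MulEquiv.ext fun u => Subtype.ext (by simp) }
    have hlt : Nat.card U < n := by
      rw [← hn]
      refine lt_of_le_of_ne (Subgroup.card_le_card_group U) fun h => hU (Subgroup.eq_top_of_card_eq U h)
    have h := ih _ hlt U rfl (hX.to_subgroup U) ψ
      (fun x hx r => Subtype.ext (hfix x (congrArg Subtype.val hx) r))
      (le_trans (Nat.card_le_card_of_injective (fun x : {x : U // x * x = 1} =>
        (⟨x.1.1, congrArg Subtype.val x.2⟩ : {x : X // x * x = 1}))
        (fun a b h => Subtype.ext (Subtype.ext (congrArg Subtype.val h :)))) hfour)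
    exact congrArg Subtype.val (DFunLike.congr_fun (DFunLike.congr_fun h r) ⟨u, hu⟩)

theorem isSolvable_mulAut {X : Type u} [Group X] [Finite X] (h2 : IsPGroup 2 X)
    (h3 : Nat.card {x : X // orderOf x = 2} = 3) : Group.IsSolvable (MulAut X) := by
  classical
  haveI : Finite (MulAut X) := Finite.of_injective (fun a : MulAut X => (a : X → X)) DFunLike.coe_injective
  have hd : ∀ n, derivedSeries (MulAut X) (n + 1) ≤ derivedSeries (MulAut X) n :=
    fun n => derivedSeries_antitone _ (Nat.le_succ n)
  obtain ⟨n, hn⟩ : ∃ n, derivedSeries (MulAut X) (n + 1) = derivedSeries (MulAut X) n := by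
    by_contra hc
    push Not at hc
    have key : ∀ n, Nat.card (derivedSeries (MulAut X) n) + n ≤ Nat.card (MulAut X) := by
      intro n
      induction n with
      | zero => simpa using Subgroup.card_le_card_group (derivedSeries (MulAut X) 0)
      | succ n ih =>
        have : Nat.card (derivedSeries (MulAut X) (n + 1)) < Nat.card (derivedSeries (MulAut X) n) := by
          refine lt_of_le_of_ne (Subgroup.card_le_of_le (hd n)) fun e => hc n ?_
          exact Subgroup.eq_of_le_of_card_ge (hd n) e.ge
        omega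
    have := key (Nat.card (MulAut X) + 1)
    omega
  refine ⟨n, ?_⟩
  set R := derivedSeries (MulAut X) n
  have hperf : commutator R = ⊤ := by
    refine Subgroup.map_injective R.subtype_injective ?_
    rw [Subgroup.map_subtype_commutator, ← derivedSeries_succ, hn, ← MonoidHom.range_eq_map, Subgroup.range_subtype]
  let π : MulAut X →* Equiv.Perm {x : X // orderOf x = 2} :=
    { toFun := fun a => a.toEquiv.subtypeEquiv (fun x => by
        rw [show orderOf (a.toEquiv x) = orderOf x from MulEquiv.orderOf_eq a x])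
      map_one' := Equiv.ext fun _ => rfl
      map_mul' := fun a b => Equiv.ext fun _ => rfl }
  haveI : Group.IsSolvable (Equiv.Perm {x : X // orderOf x = 2}) :=
    solvable_of_card_le (by rw [Nat.card_perm, h3]; decide)
  have hπ := eq_top_of_perfect_hom hperf (π.comp R.subtype)
  have hfix : ∀ x : X, x * x = 1 → ∀ r : R, (r : MulAut X) x = x := by
    intro x hx r
    by_cases h1 : x = 1
    · subst h1; exact map_one _
    have ho : orderOf x = 2 := orderOf_eq_prime (by rw [pow_two]; exact hx) h1
    exact congrArg Subtype.val (DFunLike.congr_fun (DFunLike.congr_fun hπ r) ⟨x, ho⟩)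
  have hfour : Nat.card {x : X // x * x = 1} ≤ 4 := by
    let f : {x : X // x * x = 1} → Option {x : X // orderOf x = 2} := fun x =>
      if h : x.1 = 1 then none else some ⟨x.1, orderOf_eq_prime (by rw [pow_two]; exact x.2) h⟩
    have hf : Function.Injective f := fun a b h => by
      apply Subtype.ext
      simp only [f] at h
      split_ifs at h with ha hb
      · exact ha.trans hb.symm
      · exact congrArg (Subtype.val (p := fun x : X => orderOf x = 2)) (Option.some.inj h)
    refine (Nat.card_le_card_of_injective f hf).trans ?_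
    rw [Finite.card_option, h3]
  have h := trivial_action hperf _ X rfl h2 R.subtype hfix hfour
  exact (Subgroup.eq_bot_iff_forall R).2 fun a ha => (DFunLike.congr_fun h ⟨a, ha⟩ :)

end CfsgLib.ThreeInvolutions
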