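import Mathlib
import Cfsg.Agent.CharBasics.Burnside

/-!
A perfect group preserving a pair of quadratic forms over two elements without common zero acts trivially or
reducibly.
-/

set_option autoImplicit false

namespace CfsgLib.ThreeInvolutions

/-- The values of the pairs of forms. -/
abbrev A2 : Type := ZMod 2 × ZMod 2

/-- The three non-zero functionals. -/
def fn (i : Fin 3) (a : A2) : ZMod 2 := if i.val = 0 then a.1 else if i.val = 1 then a.2 else a.1 + a.2

theorem fn_add : ∀ (i : Fin 3) (a b : A2), fn i (a + b) = fn i a + fn i b := by decide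

theorem fn_zero : ∀ i : Fin 3, fn i (0 : A2) = 0 := by decide

theorem fn_sep : ∀ a : A2, (∀ i, fn i a = 0) → a = 0 := by decide

theorem fn_proper : ∀ s : Finset A2, (0 : A2) ∈ s → (∀ a ∈ s, ∀ b ∈ s, a + b ∈ s) → s ≠ Finset.univ →
    ∃ i, ∀ a ∈ s, fn i a = 0 := by decide +kernel

/-- A sign. -/
def sg (a : ZMod 2) : ℤ := if a = 0 then 1 else -1

theorem sg_add : ∀ a b : ZMod 2, sg (a + b) = sg a * sg b := by decide

theorem sg_self : ∀ a : ZMod 2, sg a * sg a = 1 := by decide

theorem add_self2 : ∀ a : ZMod 2, a + a = 0 := by decide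

theorem eq_one2 : ∀ a : ZMod 2, a ≠ 0 → a = 1 := by decide

theorem count_id : ∀ a z : A2, (if a = z then (4 : ℤ) else 0) =
    1 + sg (fn 0 z) * sg (fn 0 a) + sg (fn 1 z) * sg (fn 1 a) + sg (fn 2 z) * sg (fn 2 a) := by decide

theorem sum_sg_fn : ∀ z : A2, z ≠ 0 → sg (fn 0 z) + sg (fn 1 z) + sg (fn 2 z) = -1 := by decide

theorem eq_top_of_perfect_hom {R H : Type*} [Group R] [Group H] [hH : Group.IsSolvable H]
    (hperf : commutator R = ⊤) (f : R →* H) : f = 1 := by
  obtain ⟨n, hn⟩ := (Group.IsSolvable.solvable (G := H))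
  have htop : ∀ m, derivedSeries R m = ⊤ := by
    intro m
    induction m with
    | zero => rfl
    | succ m ih => rw [derivedSeries_succ, ih, ← commutator_def, hperf]
  have h := map_derivedSeries_le_derivedSeries f n
  rw [htop, hn, le_bot_iff, Subgroup.map_eq_bot_iff] at h
  exact MonoidHom.ext fun r => h (Subgroup.mem_top r)

theorem solvable_of_card_le {H : Type*} [Group H] [Finite H] (h : Nat.card H ≤ 25) : Group.IsSolvable H := by
  have key : ∀ n : Fin 26, n.val ≠ 0 → ∃ p q : Fin 26, ∀ r : Fin 26, r.val.Prime → r.val ∣ n.val →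
      r = p ∨ r = q := by
    decide +kernel
  obtain ⟨p, q, hpq⟩ := key ⟨Nat.card H, by omega⟩ Nat.card_pos.ne'
  refine CfsgLib.CharBasics.isSolvable_two_primes p.val q.val fun r hr hd => ?_
  have := Nat.le_of_dvd Nat.card_pos hd
  exact (hpq ⟨r, by omega⟩ hr hd).imp (congrArg Fin.val) (congrArg Fin.val)

variable {R V : Type*} [Group R] [Group V] [Finite V]

theorem core (hperf : commutator R = ⊤) (n : ℕ) (hcard : Nat.card V = 2 ^ n) (ρ : R →* MulAut V)
    (hirr : ∀ U : Subgroup V, (∀ r, ∀ u ∈ U, ρ r u ∈ U) → U = ⊥ ∨ U = ⊤)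
    (hcomm : ∀ u w : V, u * w = w * u)
    (q : V → A2) (b : V → V → A2) (hq : ∀ u w, q (u * w) = q u + q w + b u w)
    (hb : ∀ u w w', b u (w * w') = b u w + b u w')
    (hinv : ∀ r u, q (ρ r u) = q u) (han : ∀ u, q u = 0 → u = 1) : ρ = 1 := by
  classical
  haveI := Fintype.ofFinite V
  set N := Nat.card V with hN
  have hN0 : 0 < N := Nat.card_pos
  have hsymm : ∀ u w, b u w = b w u := fun u w => by
    have h := hq w u
    rw [hcomm, hq, add_comm (q w) (q u)] at h
    exact add_left_cancel h
  have hb1 : ∀ u, b u 1 = 0 := fun u => by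
    have h := hb u 1 1
    rw [mul_one] at h
    exact left_eq_add.1 h
  have hq1 : q 1 = 0 := by
    have h := hq 1 1
    rw [mul_one, hb1, add_zero] at h
    exact left_eq_add.1 h
  have hbinv : ∀ r u w, b (ρ r u) (ρ r w) = b u w := fun r u w => by
    have h := hinv r (u * w)
    rw [map_mul, hq, hq, hinv, hinv] at h
    exact add_left_cancel h
  have hsmall : N ≤ 4 → ρ = 1 := fun h4 => by
    haveI : Group.IsSolvable (Equiv.Perm V) := by
      refine solvable_of_card_le ?_
      rw [Nat.card_perm]
      exact le_trans (Nat.factorial_le h4) (by decide)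
    have h := eq_top_of_perfect_hom hperf ((MulAut.toPerm V).comp ρ)
    exact MonoidHom.ext fun r => MulEquiv.ext fun v => DFunLike.congr_fun (DFunLike.congr_fun h r) v
  set S : Fin 3 → ℤ := fun i => ∑ v, sg (fn i (q v)) with hS
  have hform : ∀ i, (∀ v, fn i (q v) = 0) ∨ (S i * S i = N ∧ ∀ u, (∀ w, fn i (b u w) = 0) → u = 1) ∨ N ≤ 2 := by
    intro i
    have hfb : ∀ u w w', fn i (b u (w * w')) = fn i (b u w) + fn i (b u w') := fun u w w' => by rw [hb, fn_add]
    let rad : Subgroup V :=
      { carrier := {u | ∀ w, fn i (b u w) = 0}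
        one_mem' := fun w => by rw [hsymm, hb1, fn_zero]
        mul_mem' := fun {u u'} hu hu' w => by rw [hsymm, hfb, ← hsymm u, ← hsymm u', hu, hu', add_zero]
        inv_mem' := fun {u} hu w => by
          have h : fn i (b w (u⁻¹ * u)) = fn i (b w u⁻¹) + fn i (b w u) := hfb w _ _
          rw [inv_mul_cancel, hb1, ← hsymm u, hu, add_zero, hsymm w] at h
          rw [← h, fn_zero] }
    rcases hirr rad (fun r u hu w => by
      have h := hbinv r u ((ρ r)⁻¹ w)
      rw [MulAut.apply_inv_self] at h
      rw [h]; exact hu _) with h | h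
    · refine Or.inr (Or.inl ⟨?_, fun u hu => Subgroup.mem_bot.1 (h ▸ (show u ∈ rad from hu))⟩)
      have inner : ∀ w, ∑ u, sg (fn i (b u w)) = if w = 1 then (N : ℤ) else 0 := by
        intro w
        split_ifs with hw
        · subst hw
          rw [hN, Nat.card_eq_fintype_card]
          simp only [hb1, fn_zero i, show sg 0 = 1 from rfl, Finset.sum_const,
            Finset.card_univ, nsmul_eq_mul, mul_one]
        · obtain ⟨u0, hu0⟩ : ∃ u0, fn i (b w u0) ≠ 0 := by
            by_contra hc
            push Not at hc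
            exact hw (Subgroup.mem_bot.1 (h ▸ (show w ∈ rad from hc)))
          have e : ∑ u, sg (fn i (b u w)) = -∑ u, sg (fn i (b u w)) := by
            conv_lhs => rw [← Equiv.sum_comp (Equiv.mulLeft u0)]
            rw [← Finset.sum_neg_distrib]
            refine Finset.sum_congr rfl fun u _ => ?_
            rw [Equiv.coe_mulLeft, hsymm, hfb, eq_one2 _ hu0, ← hsymm u]
            exact (by decide : ∀ z, sg (1 + z) = -sg z) _
          omega
      calc S i * S i = ∑ u, ∑ w, sg (fn i (q u)) * sg (fn i (q (u * w))) := by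
            rw [hS]
            simp only
            rw [Finset.sum_mul]
            refine Finset.sum_congr rfl fun u _ => ?_
            rw [Finset.mul_sum]
            exact (Equiv.sum_comp (Equiv.mulLeft u) _).symm
        _ = ∑ w, sg (fn i (q w)) * ∑ u, sg (fn i (b u w)) := by
            rw [Finset.sum_comm]
            refine Finset.sum_congr rfl fun w _ => ?_
            rw [Finset.mul_sum]
            refine Finset.sum_congr rfl fun u _ => ?_
            rw [hq, fn_add, fn_add, sg_add, sg_add, ← mul_assoc, ← mul_assoc, sg_self, one_mul]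
        _ = _ := by
            simp only [inner, mul_ite, mul_zero, Finset.sum_ite_eq', Finset.mem_univ, if_true, hq1]
            rw [fn_zero i]
            simp [sg]
    · have hlin : ∀ u w, fn i (q (u * w)) = fn i (q u) + fn i (q w) := fun u w => by
        rw [hq, fn_add, fn_add, (show u ∈ rad from h ▸ Subgroup.mem_top u) w, add_zero]
      let f : V →* Multiplicative (ZMod 2) :=
        { toFun := fun v => Multiplicative.ofAdd (fn i (q v))
          map_one' := by
            show Multiplicative.ofAdd (fn i (q 1)) = 1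
            rw [hq1, fn_zero]; rfl
          map_mul' := fun u w => by rw [hlin]; rfl }
      rcases hirr f.ker (fun r u hu => by
        rw [MonoidHom.mem_ker] at hu ⊢
        show Multiplicative.ofAdd (fn i (q (ρ r u))) = 1
        rw [hinv]; exact hu) with h' | h'
      · refine Or.inr (Or.inr ?_)
        have h2 := Nat.card_le_card_of_injective f ((MonoidHom.ker_eq_bot_iff f).1 h')
        rw [hN]; simpa using h2
      · exact Or.inl fun v => Multiplicative.ofAdd.injective
          (MonoidHom.mem_ker.1 (h' ▸ Subgroup.mem_top v))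
  have hzero : ∀ i, (∀ v, fn i (q v) = 0) → S i = N := fun i h => by
    simp only [hS, h, show sg 0 = 1 from rfl, Finset.sum_const, Finset.card_univ, nsmul_eq_mul, mul_one, hN,
      Nat.card_eq_fintype_card]
  have hcnt : ∀ z, 4 * (Nat.card {v // q v = z} : ℤ) =
      N + sg (fn 0 z) * S 0 + sg (fn 1 z) * S 1 + sg (fn 2 z) * S 2 := by
    intro z
    have h : ∑ v, (if q v = z then (4 : ℤ) else 0) = ∑ v, (1 + sg (fn 0 z) * sg (fn 0 (q v)) +
        sg (fn 1 z) * sg (fn 1 (q v)) + sg (fn 2 z) * sg (fn 2 (q v))) :=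
      Finset.sum_congr rfl fun v _ => count_id _ _
    rw [Finset.sum_add_distrib, Finset.sum_add_distrib, Finset.sum_add_distrib, ← Finset.mul_sum,
      ← Finset.mul_sum, ← Finset.mul_sum, Finset.sum_const, Finset.card_univ, ← Finset.sum_filter,
      Finset.sum_const, nsmul_eq_mul, nsmul_eq_mul, mul_one] at h
    rw [hN, Nat.card_eq_fintype_card, Nat.card_eq_fintype_card, Fintype.card_subtype, mul_comm, h]
  have h0 : Nat.card {v // q v = 0} = 1 := by
    rw [Nat.card_eq_one_iff_unique]
    exact ⟨⟨fun u w => Subtype.ext ((han _ u.2).trans (han _ w.2).symm)⟩, ⟨⟨1, hq1⟩⟩⟩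
  have hsum : (N : ℤ) + S 0 + S 1 + S 2 = 4 := by
    have h := hcnt 0
    rw [h0, show sg (fn 0 0) = 1 from rfl, show sg (fn 1 0) = 1 from rfl, show sg (fn 2 0) = 1 from rfl] at h
    simpa using h.symm
  by_cases h4 : N ≤ 4
  · exact hsmall h4
  have hsq : ∀ i, (S i = N) ∨ S i * S i = N := fun i => by
    rcases hform i with h | h | h
    · exact Or.inl (hzero i h)
    · exact Or.inr h.1
    · omega
  have hN5 : (5 : ℤ) ≤ N := by omega
  have hbound : ∀ i, S i * S i = N → -(N : ℤ) ≤ 2 * S i + 2 ∧ 2 * S i ≤ (N : ℤ) + 2 := fun i h =>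
    ⟨by nlinarith [sq_nonneg (S i + 1)], by nlinarith [sq_nonneg (S i - 1)]⟩
  have hne : ∀ i, S i * S i = N ∧ ∀ u, (∀ w, fn i (b u w) = 0) → u = 1 := by
    have hnz : ∀ i, ¬ ∀ v, fn i (q v) = 0 := by
      intro i h
      have hi := hzero i h
      have hb0 := hbound 0
      have hb1' := hbound 1
      have hb2 := hbound 2
      have hs0 := hsq 0
      have hs1 := hsq 1
      have hs2 := hsq 2
      fin_cases i
      all_goals
        simp only [Fin.zero_eta, Fin.mk_one, Fin.reduceFinMk] at hi
        rcases hs0 with e0 | e0 <;> rcases hs1 with e1 | e1 <;> rcases hs2 with e2 | e2 <;>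
          first
            | nlinarith
            | nlinarith [sq_nonneg (S 0 + S 1 + 4), sq_nonneg (S 1 + S 2 + 4), sq_nonneg (S 0 + S 2 + 4),
                sq_nonneg (S 0 - S 1), sq_nonneg (S 1 - S 2), sq_nonneg (S 0 - S 2)]
    intro i
    rcases hform i with h | h | h
    · exact absurd h (hnz i)
    · exact h
    · omega
  have h16 : N = 16 ∧ ∀ i, S i = -4 := by
    have hle : N ≤ 16 := by
      have : (N : ℤ) ≤ 16 := by
        nlinarith [(hne 0).1, (hne 1).1, (hne 2).1, sq_nonneg (S 0 - S 1), sq_nonneg (S 1 - S 2),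
          sq_nonneg (S 0 - S 2)]
      omega
    have hn : n ≤ 4 := (Nat.pow_le_pow_iff_right (by norm_num : 1 < 2)).1 (by rw [← hcard]; simpa using hle)
    have hs := (hne 0).1
    have hN16 : N = 16 := by
      interval_cases n <;> simp at hcard <;> try omega
      exfalso
      rw [hcard] at hs
      push_cast at hs
      have h1 : S 0 ≤ 2 := by nlinarith
      have h2 : -2 ≤ S 0 := by nlinarith
      interval_cases (S 0) <;> simp at hs
    refine ⟨hN16, fun i => ?_⟩
    have hc : ∀ j, S j = 4 ∨ S j = -4 := fun j => by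
      have h := (hne j).1
      rw [hN16] at h
      push_cast at h
      exact mul_self_eq_mul_self_iff.1 (by linarith)
    rw [hN16] at hsum
    rcases hc 0 with a | a <;> rcases hc 1 with c | c <;> rcases hc 2 with e | e <;>
      rw [a, c, e] at hsum <;> norm_num at hsum
    fin_cases i <;> assumption
  obtain ⟨hN16, hSv⟩ := h16
  have hfib : ∀ z : A2, z ≠ 0 → Nat.card {v // q v = z} = 5 := fun z hz => by
    have h := hcnt z
    have h' := sum_sg_fn z hz
    rw [hSv, hSv, hSv, hN16] at h
    omega
  -- the joint perpendicular of a vector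
  let perp : V → (V →* Multiplicative A2) := fun v =>
    { toFun := fun w => Multiplicative.ofAdd (b v w)
      map_one' := by rw [hb1]; rfl
      map_mul' := fun w w' => by rw [hb]; rfl }
  have hW4 : ∀ v, v ≠ 1 → Nat.card (perp v).ker = 4 := by
    intro v hv
    have hsurj : Function.Surjective (perp v) := by
      by_contra hns
      let s : Finset A2 := Finset.univ.image fun w => b v w
      obtain ⟨i, hi⟩ := fn_proper s (Finset.mem_image.2 ⟨1, Finset.mem_univ _, hb1 v⟩)
        (fun a ha c hc => by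
          obtain ⟨x, -, rfl⟩ := Finset.mem_image.1 ha
          obtain ⟨y, -, rfl⟩ := Finset.mem_image.1 hc
          exact Finset.mem_image.2 ⟨x * y, Finset.mem_univ _, hb v x y⟩)
        (fun hs => hns fun a => by
          obtain ⟨w, -, hw⟩ := Finset.mem_image.1 (show Multiplicative.toAdd a ∈ s by rw [hs]; exact Finset.mem_univ _)
          exact ⟨w, congrArg Multiplicative.ofAdd hw⟩)
      exact hv ((hne i).2 v fun w => hi _ (Finset.mem_image.2 ⟨w, Finset.mem_univ _, rfl⟩))
    have h := (perp v).ker.card_mul_index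
    rw [Subgroup.index_ker, MonoidHom.range_eq_top.2 hsurj, Subgroup.card_top, ← hN, hN16,
      show Nat.card (Multiplicative A2) = 4 by rw [Nat.card_eq_fintype_card]; rfl] at h
    omega
  have hmemW : ∀ v w, w ∈ (perp v).ker ↔ b v w = 0 := fun v w =>
    MonoidHom.mem_ker.trans Multiplicative.ofAdd.injective.eq_iff
  have hself : ∀ v, v ∈ (perp v).ker := fun v => by
    rw [hmemW]
    have hvv : v * v = 1 := by
      by_contra hne'
      have h := hq v v
      have hb' : ∀ w, b (v * v) w = 0 := fun w => by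
        rw [hsymm, hb]
        exact (by decide : ∀ a : A2, a + a = 0) _
      exact hne' ((hne 0).2 _ fun w => by rw [hb']; rfl)
    have h := hq v v
    rw [hvv, hq1, (by decide : ∀ a : A2, a + a = 0) (q v), zero_add] at h
    exact h.symm
  have hqinj : ∀ v x y, x ∈ (perp v).ker → y ∈ (perp v).ker → v ≠ 1 → q x = q y → x = y ∨ b x y ≠ 0 := by
    intro v x y _ _ _ h
    by_contra hc
    push Not at hc
    refine hc.1 ?_
    have h1 : q (x * y) = 0 := by
      rw [hq, hc.2, h, add_zero]; exact (by decide : ∀ a : A2, a + a = 0) _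
    have h2 := han _ h1
    have h3 : y * y = 1 := by
      refine han _ ?_
      rw [hq, (hmemW _ _).1 (hself y), (by decide : ∀ a : A2, a + a = 0) (q y), add_zero]
    calc x = x * (y * y) := by rw [h3, mul_one]
      _ = y := by rw [← mul_assoc, h2, one_mul]
  have hWtriv : ∀ v x y, v ≠ 1 → x ∈ (perp v).ker → y ∈ (perp v).ker → b x y = 0 := by
    intro v x y hv hx hy
    by_cases hxv : x = v
    · subst hxv; exact (hmemW _ _).1 hy
    by_cases hx1 : x = 1
    · subst hx1; rw [hsymm, hb1]
    let U : Subgroup V :=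
      { carrier := {w | b x w = 0} ∩ (perp v).ker
        one_mem' := ⟨hb1 x, one_mem _⟩
        mul_mem' := fun {a c} ha hc =>
          ⟨by show b x (a * c) = 0; rw [hb, show b x a = 0 from ha.1, show b x c = 0 from hc.1, add_zero],
            mul_mem ha.2 hc.2⟩
        inv_mem' := fun {a} ha => by
          refine ⟨?_, inv_mem ha.2⟩
          have h := hb x a⁻¹ a
          rw [inv_mul_cancel, hb1, show b x a = 0 from ha.1, add_zero] at h
          exact h.symm }
    have hU : U ≤ (perp v).ker := fun a ha => ha.2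
    have h3 : ({1, v, x} : Finset V) ⊆ Finset.univ.filter (· ∈ U) := by
      intro a ha
      simp only [Finset.mem_insert, Finset.mem_singleton] at ha
      refine Finset.mem_filter.2 ⟨Finset.mem_univ _, ?_⟩
      rcases ha with rfl | rfl | rfl
      · exact U.one_mem
      · exact ⟨by show b x a = 0; rw [hsymm]; exact (hmemW _ _).1 hx, hself _⟩
      · exact ⟨(hmemW _ _).1 (hself _), hx⟩
    have h3' := Finset.card_le_card h3
    rw [Finset.card_eq_three.2 ⟨1, v, x, Ne.symm hv, Ne.symm hx1, Ne.symm hxv, rfl⟩] at h3'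
    have hUc : Nat.card U = (Finset.univ.filter (· ∈ U)).card := by
      rw [Nat.card_eq_fintype_card, ← Fintype.card_subtype]
    have hd := Subgroup.card_dvd_of_le hU
    rw [hW4 v hv] at hd
    have hle4 := Nat.le_of_dvd (by norm_num) hd
    have : U = (perp v).ker := Subgroup.eq_of_le_of_card_ge hU (by
      rw [hW4 v hv]
      rcases (Nat.eq_or_lt_of_le hle4) with e | e
      · omega
      · interval_cases hUv : Nat.card U <;> omega)
    exact ((this ▸ hy : y ∈ U)).1
  haveI := Fintype.ofFinite V
  obtain ⟨v, hv⟩ : ∃ v : V, v ≠ 1 := by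
    by_contra hc
    push Not at hc
    have : N ≤ 1 := by
      rw [hN]
      exact (Finite.card_le_one_iff_subsingleton).2 ⟨fun a c => (hc a).trans (hc c).symm⟩
    omega
  obtain ⟨w, hw⟩ : ∃ w, w ∉ (perp v).ker := by
    by_contra hc
    push Not at hc
    have h := hW4 v hv
    rw [(Subgroup.eq_top_iff' _).2 hc, Subgroup.card_top] at h
    omega
  have hw1 : w ≠ 1 := fun h => hw (h ▸ one_mem _)
  have htop : (perp v).ker ⊔ (perp w).ker = ⊤ := by
    have hdisj : ∀ z, z ∈ (perp v).ker → z ∈ (perp w).ker → z = 1 := by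
      intro z hzv hzw
      by_contra hz
      have hv' : v ∈ (perp z).ker := by rw [hmemW, hsymm]; exact (hmemW _ _).1 hzv
      have hw' : w ∈ (perp z).ker := by rw [hmemW, hsymm]; exact (hmemW _ _).1 hzw
      exact hw ((hmemW _ _).2 (hWtriv z v w hz hv' hw'))
    let f : (perp v).ker × (perp w).ker → ↥((perp v).ker ⊔ (perp w).ker) := fun p =>
      ⟨p.1.1 * p.2.1, Subgroup.mul_mem _ (Subgroup.mem_sup_left p.1.2) (Subgroup.mem_sup_right p.2.2)⟩
    have hf : Function.Injective f := fun p p' h => by
      have h1 : p.1.1 * p.2.1 = p'.1.1 * p'.2.1 := congrArg Subtype.val h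
      have h2 : p'.1.1⁻¹ * p.1.1 = p'.2.1 * p.2.1⁻¹ := by
        rw [eq_mul_inv_iff_mul_eq, mul_assoc, h1, inv_mul_cancel_left]
      have h3 := hdisj _ (mul_mem (inv_mem p'.1.2) p.1.2) (h2 ▸ mul_mem p'.2.2 (inv_mem p.2.2))
      refine Prod.ext (Subtype.ext (inv_mul_eq_one.1 h3).symm) (Subtype.ext ?_)
      rw [h3] at h2
      exact (mul_inv_eq_one.1 h2.symm).symm
    have h := Nat.card_le_card_of_injective f hf
    rw [Nat.card_prod, hW4 v hv, hW4 w hw1] at h
    exact Subgroup.eq_top_of_le_card _ (by rw [← hN, hN16]; omega)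
  haveI : Group.IsSolvable ρ.range := by
    refine solvable_of_card_le (le_trans (Nat.card_le_card_of_injective
      (fun g : ρ.range => ((⟨g.1 v, ?_⟩ : {x // q x = q v}), (⟨g.1 w, ?_⟩ : {x // q x = q w}))) ?_) ?_)
    · obtain ⟨r, hr⟩ := g.2
      rw [← hr]; exact hinv r v
    · obtain ⟨r, hr⟩ := g.2
      rw [← hr]; exact hinv r w
    · intro g g' h
      have e1 : g.1 v = g'.1 v := congrArg Subtype.val (congrArg Prod.fst h)
      have e2 : g.1 w = g'.1 w := congrArg Subtype.val (congrArg Prod.snd h)
      have hG : ∀ g : ρ.range, (∀ x y, b (g.1 x) (g.1 y) = b x y) ∧ ∀ x, q (g.1 x) = q x := fun g => by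
        obtain ⟨r, hr⟩ := g.2
        rw [← hr]; exact ⟨hbinv r, hinv r⟩
      have hfix : ∀ u, u ≠ 1 → g.1 u = g'.1 u → ∀ x ∈ (perp u).ker, g.1 x = g'.1 x := by
        intro u hu e x hx
        have hu' : g.1 u ≠ 1 := fun h' => hu (g.1.injective (h'.trans (map_one _).symm))
        have m1 : g.1 x ∈ (perp (g.1 u)).ker := by rw [hmemW, (hG g).1]; exact (hmemW _ _).1 hx
        have m2 : g'.1 x ∈ (perp (g.1 u)).ker := by rw [hmemW, e, (hG g').1]; exact (hmemW _ _).1 hx
        exact (hqinj _ _ _ m1 m2 hu' (((hG g).2 x).trans ((hG g').2 x).symm)).resolve_right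
          (fun h' => h' (hWtriv _ _ _ hu' m1 m2))
      have hle : (perp v).ker ⊔ (perp w).ker ≤ MonoidHom.eqLocus g.1.toMonoidHom g'.1.toMonoidHom :=
        sup_le (hfix v hv e1) (hfix w hw1 e2)
      rw [htop] at hle
      exact Subtype.ext (MulEquiv.ext fun x => hle (Subgroup.mem_top x))
    · rw [Nat.card_prod, hfib _ (fun h => hv (han _ h)), hfib _ (fun h => hw1 (han _ h))]
  have h := eq_top_of_perfect_hom hperf ρ.rangeRestrict
  exact MonoidHom.ext fun r => congrArg Subtype.val (DFunLike.congr_fun h r)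

end CfsgLib.ThreeInvolutions
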